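import Mathlib
import Cfsg.Agent.H99.SylTwoDown

/-!
# `3`-subgroups of the symmetric group of degree 9 with elements of order 9 (S2499, COV-ALT-9, helper621)
-/

set_option autoImplicit false

namespace Cfsg.Agent.H621.Cov

open Equiv Equiv.Perm

abbrev P9 := Perm (Fin 9)

abbrev Z := ZMod 3

abbrev F3 := Z → Z

/-- the function with three given values -/
def tri (a b c : Z) : F3 := fun r => if r = 0 then a else if r = 1 then b else c

theorem eq_tri (f : F3) : f = tri (f 0) (f 1) (f 2) := by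
  funext r
  have h : ∀ r : Z, r = 0 ∨ r = 1 ∨ r = 2 := by decide
  rcases h r with rfl | rfl | rfl
  · rfl
  · rfl
  · rfl

/-- the pairs -/
def fp : Z × Z ≃ Fin 9 := (finProdFinEquiv : Fin 3 × Fin 3 ≃ Fin (3 * 3))

/-- the element `(a, r) ↦ (a + f r, r + j)` -/
def el (f : F3) (j : Z) : Perm (Z × Z) where
  toFun x := (x.1 + f x.2, x.2 + j)
  invFun x := (x.1 - f (x.2 - j), x.2 - j)
  left_inv x := by simp
  right_inv x := by simp

/-- the same on `Fin 9` -/
def mk (f : F3) (j : Z) : P9 := fp.permCongr (el f j)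

theorem el_mul (f g : F3) (j k : Z) : el f j * el g k = el (fun r => g r + f (r + k)) (k + j) := by
  apply Equiv.ext
  intro x
  simp only [el, Perm.coe_mul, Function.comp_apply, Equiv.coe_fn_mk]
  ext1
  · simp only; abel
  · simp only; abel

theorem el_inv (f : F3) (j : Z) : (el f j)⁻¹ = el (fun r => - f (r - j)) (-j) := by
  rw [inv_eq_iff_mul_eq_one, el_mul]
  apply Equiv.ext
  intro x
  simp only [el, Perm.coe_one, Equiv.coe_fn_mk, id_eq]
  ext1
  · simp only; rw [← sub_eq_add_neg]; simp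
  · simp

theorem el_one : el (fun _ => 0) 0 = 1 := by
  apply Equiv.ext
  intro x
  simp [el]

theorem el_inj {f g : F3} {j k : Z} (h : el f j = el g k) : f = g ∧ j = k := by
  have h1 : ∀ x : Z × Z, (x.1 + f x.2, x.2 + j) = (x.1 + g x.2, x.2 + k) := fun x =>
    congrFun (congrArg (fun e : Perm (Z × Z) => (e : Z × Z → Z × Z)) h) x
  constructor
  · funext r
    have := congrArg Prod.fst (h1 (0, r))
    simpa using this
  · have := congrArg Prod.snd (h1 (0, 0))
    simpa using this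

theorem mk_mul (f g : F3) (j k : Z) : mk f j * mk g k = mk (fun r => g r + f (r + k)) (k + j) := by
  rw [mk, mk, mk, ← el_mul]
  apply Equiv.ext
  intro x
  simp [Equiv.permCongr_apply]

theorem mk_one : mk (fun _ => 0) 0 = 1 := by
  rw [mk, el_one]
  apply Equiv.ext
  intro x
  simp [Equiv.permCongr_apply]

theorem mk_inv (f : F3) (j : Z) : (mk f j)⁻¹ = mk (fun r => - f (r - j)) (-j) := by
  rw [inv_eq_iff_mul_eq_one, mk_mul, ← mk_one]
  congr 1
  · funext r
    rw [← sub_eq_add_neg]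
    simp
  · simp

theorem mk_inj {f g : F3} {j k : Z} (h : mk f j = mk g k) : f = g ∧ j = k :=
  el_inj (fp.permCongr.injective h)

/-- a Sylow 3-subgroup of the symmetric group -/
def Q : Subgroup P9 where
  carrier := Set.range fun p : F3 × Z => mk p.1 p.2
  mul_mem' := by
    rintro _ _ ⟨p, rfl⟩ ⟨q, rfl⟩
    exact ⟨(fun r => q.1 r + p.1 (r + q.2), q.2 + p.2), (mk_mul _ _ _ _).symm⟩
  one_mem' := ⟨(fun _ => 0, 0), mk_one⟩
  inv_mem' := by
    rintro _ ⟨p, rfl⟩
    exact ⟨(fun r => - p.1 (r - p.2), -p.2), (mk_inv _ _).symm⟩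

theorem card_Q : Nat.card Q = 81 := by
  have h : Nat.card Q = Nat.card (F3 × Z) := by
    refine (Nat.card_congr (Equiv.ofInjective (fun p : F3 × Z => mk p.1 p.2) ?_)).symm
    rintro ⟨f, j⟩ ⟨g, k⟩ h
    obtain ⟨h1, h2⟩ := mk_inj h
    simp only at h1 h2
    rw [h1, h2]
  rw [h, Nat.card_eq_fintype_card, Fintype.card_prod, Fintype.card_fun, ZMod.card]
  norm_num

theorem index_Q : ¬ 3 ∣ Q.index := by
  have h := Q.card_mul_index
  rw [card_Q, Nat.card_eq_fintype_card, Fintype.card_perm, Fintype.card_fin,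
    show Nat.factorial 9 = 81 * 4480 by decide] at h
  have h2 : Q.index = 4480 := Nat.eq_of_mul_eq_mul_left (by norm_num) h
  rw [h2]
  norm_num

/-- the sum of the values -/
def S (f : F3) : Z := f 0 + f 1 + f 2

theorem mk_cube_of_zero (f : F3) : mk f 0 ^ 3 = 1 := by
  rw [pow_succ, pow_two, mk_mul, mk_mul, ← mk_one]
  congr 1
  funext r
  simp only [add_zero]
  generalize f r = x
  revert x
  decide

theorem mk_cube_of_sum : ∀ (j : Z) (f : F3), S f = 0 → j ≠ 0 → mk f j ^ 3 = 1 := by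
  intro j f hf hj
  rw [pow_succ, pow_two, mk_mul, mk_mul, ← mk_one]
  have hj3 : ∀ j : Z, j + (j + j) = 0 := by decide
  congr 1
  · funext r
    unfold S at hf
    have h3 : ∀ a b c : Z, a + b + c = 0 → ∀ j : Z, j ≠ 0 → ∀ r : Z,
        tri a b c r + (tri a b c (r + j) + tri a b c (r + j + j)) = 0 := by decide
    have h4 := eq_tri f
    have h5 := h3 (f 0) (f 1) (f 2) hf j hj r
    rw [← h4] at h5
    rw [← h5]
  · exact hj3 j

theorem pm_of_ne : ∀ j k : Z, j ≠ 0 → k ≠ 0 → k = j ∨ k = -j := by decide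

theorem sign_mk_zero (f : F3) : sign (mk f 0) = 1 := by
  have h := congrArg sign (mk_cube_of_zero f)
  rw [map_pow, map_one] at h
  rcases Int.units_eq_one_or (sign (mk f 0)) with h1 | h1
  · exact h1
  · rw [h1] at h
    exact absurd h (by decide)

/-- the 3-cycle -/
def dl : F3 := tri 1 0 0

theorem three_cycle : (mk dl 0).IsThreeCycle := by
  rw [← card_support_eq_three_iff]
  decide +kernel

theorem conj_base (f b : F3) (j : Z) : mk f j * mk b 0 * (mk f j)⁻¹ = mk (fun r => b (r - j)) 0 := by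
  rw [mul_inv_eq_iff_eq_mul, mk_mul, mk_mul]
  congr 1
  · funext r
    simp only [add_zero, add_sub_cancel_right]
    exact add_comm _ _
  · simp

theorem base_pow (b : F3) (n : ℕ) : mk b 0 ^ n = mk (fun r => (n : Z) * b r) 0 := by
  induction n with
  | zero => simp [mk_one]
  | succ n ih =>
    rw [pow_succ, ih, mk_mul]
    congr 1
    funext r
    simp only [add_zero]
    push_cast
    ring

/-- an element of the base with nonzero sum generates a 3-cycle -/
theorem exists_three_cycle {P : Subgroup P9} {f b : F3} {j : Z} (hj : j ≠ 0) (hf : mk f j ∈ P)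
    (hb : mk b 0 ∈ P) (hS : S b ≠ 0) : mk dl 0 ∈ P := by
  have h3 : ∀ a b c : Z, a + b + c ≠ 0 → ∀ j : Z, j ≠ 0 → ∃ n0 n1 n2 : Z, ∀ r : Z,
        n0 * tri a b c r + n1 * tri a b c (r - j) + n2 * tri a b c (r - j - j) = dl r := by decide
  obtain ⟨n0, n1, n2, hn⟩ := h3 (b 0) (b 1) (b 2) hS j hj
  have h4 := eq_tri b
  rw [← h4] at hn
  have hc1 : mk (fun r => b (r - j)) 0 ∈ P := by
    rw [← conj_base f]
    exact P.mul_mem (P.mul_mem hf hb) (P.inv_mem hf)
  have hc2 : mk (fun r => b (r - j - j)) 0 ∈ P := by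
    have := conj_base f (fun r => b (r - j)) j
    rw [← this]
    exact P.mul_mem (P.mul_mem hf hc1) (P.inv_mem hf)
  have hp : ∀ (n : Z) (c : F3), mk c 0 ∈ P → mk (fun r => n * c r) 0 ∈ P := by
    intro n c hc
    have := P.pow_mem hc n.val
    rw [base_pow] at this
    rwa [ZMod.natCast_zmod_val] at this
  have := P.mul_mem (P.mul_mem (hp n2 _ hc2) (hp n1 _ hc1)) (hp n0 _ hb)
  rw [mk_mul, mk_mul] at this
  convert this using 1
  congr 1
  · funext r
    simp only [add_zero]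
    rw [← hn r]
    ring
  

/-- elements of the same sum in a coset of the base are conjugate -/
theorem exists_conj {f g : F3} {j : Z} (hj : j ≠ 0) (h : S g = S f) :
    ∃ t : P9, sign t = 1 ∧ t * mk f j * t⁻¹ = mk g j := by
  have h3 : ∀ a b c : Z, a + b + c = 0 → ∀ j : Z, j ≠ 0 → ∃ x y z : Z, ∀ r : Z,
        tri a b c r = tri x y z (r + j) - tri x y z r := by decide
  have h0 : (g 0 - f 0) + (g 1 - f 1) + (g 2 - f 2) = 0 := by
    unfold S at h
    have : (g 0 - f 0) + (g 1 - f 1) + (g 2 - f 2) = (g 0 + g 1 + g 2) - (f 0 + f 1 + f 2) := by ring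
    rw [this, h, sub_self]
  obtain ⟨x, y, z, hx⟩ := h3 _ _ _ h0 j hj
  refine ⟨mk (tri x y z) 0, sign_mk_zero _, ?_⟩
  rw [mul_inv_eq_iff_eq_mul, mk_mul, mk_mul]
  congr 1
  · funext r
    have h4 : g r - f r = tri x y z (r + j) - tri x y z r := by
      rw [← hx r]
      exact congrFun (eq_tri fun r => g r - f r) r
    simp only [add_zero]
    rw [sub_eq_sub_iff_add_eq_add] at h4
    rw [add_comm, ← h4, add_comm]
  · simp

/-- two elements of order 9 of a `3`-subgroup without 3-cycles: one of them is conjugate to a power `± 1` of the other by an even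
permutation -/
theorem conj_of_three_group {P : Subgroup P9} (hP : IsPGroup 3 P) (h3 : ∀ t ∈ P, ¬ t.IsThreeCycle)
    {u v : P9} (hu : u ∈ P) (hv : v ∈ P) (hu3 : u ^ 3 ≠ 1) (hv3 : v ^ 3 ≠ 1) :
    ∃ t : P9, sign t = 1 ∧ (t * u * t⁻¹ = v ∨ t * u * t⁻¹ = v⁻¹) := by
  have : Fact (Nat.Prime 3) := ⟨Nat.prime_three⟩
  obtain ⟨s, hs⟩ := Cfsg.Agent.H99.exists_conj_le P Q hP index_Q
  obtain ⟨⟨f, j⟩, hfj⟩ := hs u hu
  obtain ⟨⟨g, k⟩, hgk⟩ := hs v hv
  simp only at hfj hgk
  have hne : ∀ (x : P9) (f : F3) (j : Z), mk f j = s⁻¹ * x * s → x ^ 3 ≠ 1 → j ≠ 0 ∧ S f ≠ 0 := by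
    intro x f j hx hx3
    have h1 : mk f j ^ 3 = s⁻¹ * x ^ 3 * s := by
      rw [hx]
      have := conj_pow (i := 3) (a := s⁻¹) (b := x)
      rwa [inv_inv] at this
    have h2 : mk f j ^ 3 ≠ 1 := by
      intro h0
      rw [h0] at h1
      apply hx3
      have : x ^ 3 = s * (s⁻¹ * x ^ 3 * s) * s⁻¹ := by group
      rw [this, ← h1]
      group
    constructor
    · rintro rfl
      exact h2 (mk_cube_of_zero f)
    · intro h0
      by_cases hj : j = 0
      · subst hj
        exact h2 (mk_cube_of_zero f)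
      · exact h2 (mk_cube_of_sum j f h0 hj)
  obtain ⟨hj, hSf⟩ := hne u f j hfj hu3
  obtain ⟨hk, hSg⟩ := hne v g k hgk hv3
  -- the conjugated subgroup
  let P' : Subgroup P9 := P.map (MulAut.conj s⁻¹).toMonoidHom
  have hP' : ∀ x ∈ P, s⁻¹ * x * s ∈ P' := fun x hx => ⟨x, hx, by simp⟩
  have hno : mk dl 0 ∉ P' := by
    rintro ⟨t, ht, hte⟩
    apply h3 t ht
    have h1 : s⁻¹ * t * s = mk dl 0 := by
      rw [← hte]
      simp
    have h2 : t = s * mk dl 0 * s⁻¹ := by rw [← h1]; group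
    rw [h2]
    unfold IsThreeCycle
    rw [cycleType_conj]
    exact three_cycle
  have key : ∀ (w : P9) (g' : F3), w ∈ P → mk g' j = s⁻¹ * w * s → ∃ t : P9, sign t = 1 ∧ t * u * t⁻¹ = w := by
    intro w g' hw hg'
    have hmf : mk f j ∈ P' := by rw [hfj]; exact hP' u hu
    have hmg : mk g' j ∈ P' := by rw [hg']; exact hP' w hw
    by_cases hS : S g' = S f
    · obtain ⟨t, ht, htc⟩ := exists_conj hj hS
      refine ⟨s * t * s⁻¹, by simp [ht], ?_⟩
      have : s * t * s⁻¹ * u * (s * t * s⁻¹)⁻¹ = s * (t * (s⁻¹ * u * s) * t⁻¹) * s⁻¹ := by group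
      rw [this, ← hfj, htc, hg']
      group
    · exfalso
      apply hno
      have hb : mk (fun r => g' r - f r) 0 ∈ P' := by
        have h1 := P'.mul_mem (P'.inv_mem hmf) hmg
        rw [mk_inv, mk_mul] at h1
        convert h1 using 1
        congr 1
        · funext r
          rw [add_sub_cancel_right, sub_eq_add_neg]
        · simp
      refine exists_three_cycle hj hmf hb ?_
      intro h0
      apply hS
      unfold S at h0 ⊢
      have h1 : g' 0 + g' 1 + g' 2 - (f 0 + f 1 + f 2) = 0 := by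
        have h2 : g' 0 + g' 1 + g' 2 - (f 0 + f 1 + f 2) = (g' 0 - f 0) + (g' 1 - f 1) + (g' 2 - f 2) := by ring
        rw [h2]
        exact h0
      exact sub_eq_zero.1 h1
  have hjk : k = j ∨ k = -j := pm_of_ne j k hj hk
  rcases hjk with hjk | hjk
  · rw [hjk] at hgk
    obtain ⟨t, ht, htu⟩ := key v g hv hgk
    exact ⟨t, ht, Or.inl htu⟩
  · have h1 : mk (fun r => - g (r - k)) j = s⁻¹ * v⁻¹ * s := by
      have h2 : (mk g k)⁻¹ = (s⁻¹ * v * s)⁻¹ := congrArg (fun x => x⁻¹) hgk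
      rw [mk_inv] at h2
      have h3 : j = -k := by rw [hjk, neg_neg]
      rw [h3, h2]
      group
    obtain ⟨t, ht, htu⟩ := key v⁻¹ _ (P.inv_mem hv) h1
    exact ⟨t, ht, Or.inr htu⟩

end Cfsg.Agent.H621.Cov
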