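import Cfsg.Agent.H278.Cov.Defs
import Cfsg.Agent.H100.AltSyl.Back
import Cfsg.Agent.H621.Cov.NineSyl

/-!
# `A₉` has no normal 2-covering (S2499, COV-ALT-9, helper621)
-/

set_option autoImplicit false

namespace Cfsg.Agent.H621.Cov

open Equiv Equiv.Perm MulAction Cfsg.Agent.H278.Cov
open scoped Pointwise

abbrev A9 := ↥(alternatingGroup (Fin 9))

/-! ### elements of order 5 and 7 -/

theorem cyc_of_prime {p : ℕ} (hp : p.Prime) (h9 : 9 < 2 * p) {c : P9} (hc : c ^ p = 1) (h1 : c ≠ 1) :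
    c.IsCycle ∧ c.support.card = p := by
  have : Fact p.Prime := ⟨hp⟩
  have ho : orderOf c = p := orderOf_eq_prime hc h1
  have h2 : c.IsCycle := isCycle_of_prime_order' (by rw [ho]; exact hp) (by rw [ho, Fintype.card_fin]; exact h9)
  exact ⟨h2, by rw [← h2.orderOf, ho]⟩

theorem exists_fixed {c : P9} (h : c.support.card < 9) : ∃ y : Fin 9, c y = y := by
  by_contra hcon
  push Not at hcon
  have : c.support = Finset.univ := by
    ext y
    simp [hcon y]
  rw [this, Finset.card_univ, Fintype.card_fin] at h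
  omega

/-- the block through a fixed point -/
theorem block_three {M : Subgroup A9} [IsPretransitive M (Fin 9)] {B : Set (Fin 9)} (hB : IsBlock M B)
    (hne : ¬ B.Subsingleton) (hu : B ≠ Set.univ) : B.ncard = 3 := by
  have h0 : B.Nonempty := by
    rw [Set.nonempty_iff_ne_empty]
    rintro rfl
    exact hne Set.subsingleton_empty
  have h1 := hB.ncard_dvd_card h0
  rw [Nat.card_eq_fintype_card, Fintype.card_fin] at h1
  have h2 : B.ncard ≠ 1 := by
    intro h
    rw [Set.ncard_eq_one] at h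
    obtain ⟨a, rfl⟩ := h
    exact hne Set.subsingleton_singleton
  have h3 : B.ncard ≠ 9 := by
    intro h
    apply hu
    apply Set.eq_of_subset_of_ncard_le (Set.subset_univ _) _ (Set.toFinite _)
    rw [Set.ncard_univ, Nat.card_eq_fintype_card, Fintype.card_fin, h]
  have h4 : B.ncard ≤ 9 := Nat.le_of_dvd (by norm_num) h1
  interval_cases h : B.ncard <;> omega

theorem fixed_of_block {p : ℕ} (hp : 3 ≤ p) {M : Subgroup A9} {c : A9} (hc : c ∈ M) (hcyc : (c : P9).IsCycle)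
    (hsup : (c : P9).support.card = p) {B : Set (Fin 9)} (hB : IsBlock M B) (h3 : B.ncard = 3) {y : Fin 9}
    (hy : y ∈ B) (hyc : (c : P9) y = y) : ∀ z ∈ B, (c : P9) z = z := by
  intro z hz
  by_contra hzc
  have h1 := Cfsg.Agent.H100.AltSyl.support_subset hc hcyc hB hy hyc hz hzc
  have h2 : (insert y ((c : P9).support : Set (Fin 9))) ⊆ B := by
    intro w hw
    rcases hw with rfl | hw
    · exact hy
    · exact h1 w (by simpa using hw)
  have h4 := Set.ncard_le_ncard h2 (Set.toFinite _)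
  rw [Set.ncard_insert_of_notMem (by simp [hyc]), Set.ncard_coe_finset, hsup, h3] at h4
  omega

/-- a proper subgroup with an element of order 5 is not transitive -/
theorem not_trans_five {M : Subgroup A9} (hM : M ≠ ⊤) {c : A9} (hc : c ∈ M) (h5 : (c : P9) ^ 5 = 1)
    (h1 : (c : P9) ≠ 1) : ¬ IsPretransitive M (Fin 9) := by
  intro htr
  have : Fact (Nat.Prime 5) := ⟨Nat.prime_five⟩
  obtain ⟨hcyc, hsup⟩ := cyc_of_prime Nat.prime_five (by norm_num) h5 h1
  obtain ⟨y, hy⟩ := exists_fixed (c := (c : P9)) (by rw [hsup]; norm_num)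
  obtain ⟨B, hyB, hB, hne, hu⟩ := Cfsg.Agent.H100.AltSyl.exists_block hM hc hcyc hsup
    (by rw [Fintype.card_fin]; norm_num) (by rw [Fintype.card_fin]; norm_num) htr y
  have h3 := block_three hB hne hu
  have hfix := fixed_of_block (by norm_num) hc hcyc hsup hB h3 hyB hy
  have hF : ((c : P9).support : Set (Fin 9))ᶜ.ncard = 4 := by
    rw [Set.ncard_compl, Set.ncard_coe_finset, hsup, Nat.card_eq_fintype_card, Fintype.card_fin]
  have hBF : B ⊆ ((c : P9).support : Set (Fin 9))ᶜ := by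
    intro z hz
    simp [hfix z hz]
  obtain ⟨w, hw, hwB⟩ : ∃ w ∈ ((c : P9).support : Set (Fin 9))ᶜ, w ∉ B := by
    by_contra hcon
    push Not at hcon
    have := Set.ncard_le_ncard (show ((c : P9).support : Set (Fin 9))ᶜ ⊆ B from hcon) (Set.toFinite _)
    rw [hF, h3] at this
    omega
  obtain ⟨h, hh⟩ := exists_smul_eq M y w
  have hw2 : (c : P9) w = w := by simpa using hw
  have hwB' : w ∈ h • B := ⟨y, hyB, hh⟩
  have h3' : (h • B).ncard = 3 := by rw [Set.ncard_smul_set, h3]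
  have hfix' := fixed_of_block (by norm_num) hc hcyc hsup (hB.translate h) h3' hwB' hw2
  have hBF' : h • B ⊆ ((c : P9).support : Set (Fin 9))ᶜ := by
    intro z hz
    simp [hfix' z hz]
  have hdisj : Disjoint (h • B) B := by
    have := hB (g₁ := h) (g₂ := 1)
    rw [one_smul] at this
    apply this
    intro heq
    rw [heq] at hwB'
    exact hwB hwB'
  have h2 := Set.ncard_le_ncard (Set.union_subset hBF' hBF) (Set.toFinite _)
  rw [Set.ncard_union_eq hdisj (Set.toFinite _) (Set.toFinite _), h3, h3', hF] at h2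
  omega

/-- a proper transitive subgroup with an element of order 7 has no 3-cycle -/
theorem no_three_cycle {M : Subgroup A9} (hM : M ≠ ⊤) [IsPretransitive M (Fin 9)] {c : A9} (hc : c ∈ M)
    (h7 : (c : P9) ^ 7 = 1) (h1 : (c : P9) ≠ 1) {t : A9} (ht : t ∈ M) : ¬ (t : P9).IsThreeCycle := by
  intro h3
  have : Fact (Nat.Prime 3) := ⟨Nat.prime_three⟩
  obtain ⟨hcyc, hsup⟩ := cyc_of_prime (by norm_num : Nat.Prime 7) (by norm_num) h7 h1
  apply Cfsg.Agent.H100.AltSyl.not_primitive (p := 3) hM ht h3.isCycle (card_support_eq_three_iff.2 h3)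
    (by rw [Fintype.card_fin]; norm_num) (by rw [Fintype.card_fin]; norm_num)
  obtain ⟨y, hy⟩ := exists_fixed (c := (c : P9)) (by rw [hsup]; norm_num)
  refine IsPreprimitive.of_isTrivialBlock_base y ?_
  intro B hyB hB
  by_cases hne : B.Subsingleton
  · exact Or.inl hne
  by_cases hu : B = Set.univ
  · exact Or.inr hu
  exfalso
  have h3 := block_three hB hne hu
  have hfix := fixed_of_block (by norm_num) hc hcyc hsup hB h3 hyB hy
  have hF : ((c : P9).support : Set (Fin 9))ᶜ.ncard = 2 := by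
    rw [Set.ncard_compl, Set.ncard_coe_finset, hsup, Nat.card_eq_fintype_card, Fintype.card_fin]
  have hBF : B ⊆ ((c : P9).support : Set (Fin 9))ᶜ := by
    intro z hz
    simp [hfix z hz]
  have := Set.ncard_le_ncard hBF (Set.toFinite _)
  rw [hF, h3] at this
  omega

/-! ### the elements -/

def p1 : P9 := c[0, 1, 2, 3, 4] * c[5, 6, 7]
def p2 : P9 := c[0, 1, 2, 3, 4] * (c[5, 6] * c[7, 8])
def p3 : P9 := c[0, 1, 2, 3, 4, 5, 6]
def q1 : P9 := Equiv.addRight 1
def tau : P9 := swap 0 1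
def nu : P9 := Equiv.neg (Fin 9)
def q2 : P9 := tau * q1 * tau⁻¹

def e1 : A9 := ⟨p1, mem_alternatingGroup.2 (by decide +kernel)⟩
def e2 : A9 := ⟨p2, mem_alternatingGroup.2 (by decide +kernel)⟩
def e3 : A9 := ⟨p3, mem_alternatingGroup.2 (by decide +kernel)⟩
def w1 : A9 := ⟨q1, mem_alternatingGroup.2 (by decide +kernel)⟩
def w2 : A9 := ⟨q2, mem_alternatingGroup.2 (by decide +kernel)⟩

theorem w2_val : ((w2 : A9) : P9) = q2 := rfl

theorem inv1 : ∀ s : Finset (Fin 9), (∀ i ∈ s, p1 i ∈ s) → s.card ≠ 2 ∧ s.card ≠ 7 := by decide +kernel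
theorem inv2 : ∀ s : Finset (Fin 9), (∀ i ∈ s, p2 i ∈ s) →
    s.card = 0 ∨ s.card = 2 ∨ s.card = 4 ∨ s.card = 5 ∨ s.card = 7 ∨ s.card = 9 := by decide +kernel
theorem inv3 : ∀ s : Finset (Fin 9), (∀ i ∈ s, p3 i ∈ s) → s.card ≠ 4 ∧ s.card ≠ 5 := by decide +kernel


theorem trans1 : ∀ a b : Fin 9, ∃ n : Fin 9, (q1 ^ n.val) a = b := by decide +kernel
theorem trans2 : ∀ a b : Fin 9, ∃ n : Fin 9, (q2 ^ n.val) a = b := by decide +kernel

/-! ### consequences -/

theorem pretrans_of {w : A9} (hw : ∀ a b : Fin 9, ∃ n : Fin 9, ((w : P9) ^ n.val) a = b) {K : Subgroup A9}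
    (hK : ¬ Av w K) : IsPretransitive K (Fin 9) := by
  obtain ⟨g, hg⟩ := not_av hK
  refine ⟨fun a b => ?_⟩
  obtain ⟨n, hn⟩ := hw ((g : P9)⁻¹ a) ((g : P9)⁻¹ b)
  refine ⟨⟨g * w * g⁻¹, hg⟩ ^ n.val, ?_⟩
  have h1 : (((⟨g * w * g⁻¹, hg⟩ : K) ^ n.val : K) : A9) = g * w ^ n.val * g⁻¹ := by
    rw [Subgroup.coe_pow, conj_pow]
  have h2 : ((⟨g * w * g⁻¹, hg⟩ : K) ^ n.val) • a = ((g * w ^ n.val * g⁻¹ : A9) : P9) a := by
    rw [← h1]
    rfl
  rw [h2]
  have h3 : ((g * w ^ n.val * g⁻¹ : A9) : P9) a = (g : P9) (((w : P9) ^ n.val) ((g : P9)⁻¹ a)) := rfl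
  rw [h3, hn]
  exact Equiv.apply_symm_apply _ _

theorem av_of_trans {x : A9} (hx : ((x : P9) ^ 6) ^ 5 = 1) (hx1 : (x : P9) ^ 6 ≠ 1) {K : Subgroup A9} (hK : K ≠ ⊤)
    (ht : IsPretransitive K (Fin 9)) : Av x K := by
  by_contra hcon
  obtain ⟨g, hg⟩ := not_av hcon
  have h1 : (((g * x * g⁻¹) ^ 6 : A9) : P9) = (g : P9) * (x : P9) ^ 6 * (g : P9)⁻¹ := by
    rw [conj_pow]
    rfl
  refine not_trans_five hK (K.pow_mem hg 6) ?_ ?_ ht
  · rw [h1, conj_pow, hx]
    simp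
  · rw [h1]
    intro h
    apply hx1
    have : (x : P9) ^ 6 = (g : P9)⁻¹ * ((g : P9) * (x : P9) ^ 6 * (g : P9)⁻¹) * (g : P9) := by group
    rw [this, h]
    group

/-- the size of an invariant set -/
theorem exists_inv {x : A9} {H : Subgroup A9} (hx : ¬ Av x H) {s : Finset (Fin 9)}
    (hs : ∀ h ∈ H, ∀ i ∈ s, (h : P9) i ∈ s) : ∃ s' : Finset (Fin 9), s'.card = s.card ∧ ∀ i ∈ s', (x : P9) i ∈ s' := by
  obtain ⟨g, hg⟩ := not_av hx
  refine ⟨s.map (g : P9)⁻¹.toEmbedding, Finset.card_map _, ?_⟩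
  intro i hi
  rw [Finset.mem_map] at hi ⊢
  obtain ⟨j, hj, rfl⟩ := hi
  refine ⟨((g * x * g⁻¹ : A9) : P9) j, hs _ hg j hj, ?_⟩
  change (g : P9)⁻¹ ((g : P9) ((x : P9) ((g : P9)⁻¹ j))) = (x : P9) ((g : P9)⁻¹ j)
  exact Equiv.symm_apply_apply _ _

theorem not_all {H : Subgroup A9} (ht : ¬ IsPretransitive H (Fin 9)) (h1 : ¬ Av e1 H) (h2 : ¬ Av e2 H) : Av e3 H := by
  classical
  by_contra h3
  obtain ⟨a, b, hab⟩ : ∃ a b : Fin 9, ∀ h : H, h • a ≠ b := by
    by_contra hcon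
    push Not at hcon
    exact ht ⟨fun a b => hcon a b⟩
  let s : Finset (Fin 9) := Finset.univ.filter fun i => i ∈ orbit H a
  have hs : ∀ h ∈ H, ∀ i ∈ s, (h : P9) i ∈ s := by
    intro h hh i hi
    rw [Finset.mem_filter] at hi ⊢
    refine ⟨Finset.mem_univ _, ?_⟩
    obtain ⟨k, hk⟩ := hi.2
    refine ⟨⟨h, hh⟩ * k, ?_⟩
    have hk' : k • a = i := hk
    change (⟨h, hh⟩ * k : H) • a = (h : P9) i
    rw [mul_smul, hk']
    rfl
  have has : a ∈ s := by
    rw [Finset.mem_filter]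
    exact ⟨Finset.mem_univ _, mem_orbit_self a⟩
  have hbs : b ∉ s := by
    rw [Finset.mem_filter]
    rintro ⟨-, k, hk⟩
    exact hab k hk
  have hc0 : s.card ≠ 0 := (Finset.card_pos.2 ⟨a, has⟩).ne'
  have hc9 : s.card ≠ 9 := by
    intro h
    apply hbs
    rw [(Finset.card_eq_iff_eq_univ s).1 (by rw [h, Fintype.card_fin])]
    exact Finset.mem_univ _
  obtain ⟨s1, hs1, hi1⟩ := exists_inv h1 hs
  obtain ⟨s2, hs2, hi2⟩ := exists_inv h2 hs
  obtain ⟨s3, hs3, hi3⟩ := exists_inv h3 hs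
  have k1 := inv1 s1 hi1
  have k2 := inv2 s2 hi2
  have k3 := inv3 s3 hi3
  rw [hs1] at k1
  rw [hs2] at k2
  rw [hs3] at k3
  omega

/-- the centraliser of a 9-cycle -/
theorem sign_of_comm {m : P9} (h : m * q1 = q1 * m) : sign m = 1 := by
  have h1 : ∀ x : Fin 9, m (x + 1) = m x + 1 := fun x =>
    congrFun (congrArg (fun e : P9 => (e : Fin 9 → Fin 9)) h) x
  have h2 : ∀ (n : ℕ) (hn : n < 9), m ⟨n, hn⟩ = ⟨n, hn⟩ + m 0 := by
    intro n
    induction n with
    | zero =>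
      intro hn
      change m 0 = 0 + m 0
      rw [zero_add]
    | succ n ih =>
      intro hn
      have h5 : (⟨n + 1, hn⟩ : Fin 9) = ⟨n, by omega⟩ + 1 := by
        apply Fin.ext
        rw [Fin.val_add]
        change n + 1 = (n + 1) % 9
        rw [Nat.mod_eq_of_lt hn]
      rw [h5, h1, ih]
      abel
  have h3 : m = Equiv.addRight (m 0) := by
    apply Equiv.ext
    intro x
    exact h2 x.val x.isLt
  have h4 : ∀ a : Fin 9, sign (Equiv.addRight a : P9) = 1 := by decide +kernel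
  rw [h3]
  exact h4 _

theorem nu_conj : nu * q1 * nu⁻¹ = q1⁻¹ := by decide +kernel
theorem sign_nu : sign nu = 1 := by decide +kernel
theorem sign_tau : sign tau = -1 := by decide +kernel

/-- a proper transitive subgroup with an element of order 7 contains only one class of 9-cycles -/
theorem av_second {K : Subgroup A9} (hK : K ≠ ⊤) (ht : IsPretransitive K (Fin 9)) (h3 : ¬ Av e3 K) (h1 : ¬ Av w1 K) :
    Av w2 K := by
  by_contra h2
  have : Fact (Nat.Prime 3) := ⟨Nat.prime_three⟩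
  obtain ⟨g3, hg3⟩ := not_av h3
  obtain ⟨g1, hg1⟩ := not_av h1
  obtain ⟨g2, hg2⟩ := not_av h2
  have hno : ∀ t ∈ K, ¬ (t : P9).IsThreeCycle := by
    intro t htK
    refine no_three_cycle hK hg3 ?_ ?_ htK
    · have : ((g3 * e3 * g3⁻¹ : A9) : P9) = (g3 : P9) * p3 * (g3 : P9)⁻¹ := rfl
      rw [this, conj_pow, show p3 ^ 7 = 1 by decide +kernel]
      simp
    · intro h
      have h5 : ((g3 * e3 * g3⁻¹ : A9) : P9) = (g3 : P9) * p3 * (g3 : P9)⁻¹ := rfl
      rw [h5, mul_inv_eq_one, mul_eq_left] at h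
      exact absurd h (by decide +kernel)
  -- a Sylow 3-subgroup of `K`
  let u0 : K := ⟨_, hg1⟩
  let v0 : K := ⟨_, hg2⟩
  have hu9 : u0 ^ 9 = 1 := by
    apply Subtype.ext
    apply Subtype.ext
    change ((g1 : P9) * q1 * (g1 : P9)⁻¹) ^ 9 = 1
    rw [conj_pow, show q1 ^ 9 = 1 by decide +kernel]
    simp
  have hv9 : v0 ^ 9 = 1 := by
    apply Subtype.ext
    apply Subtype.ext
    change ((g2 : P9) * q2 * (g2 : P9)⁻¹) ^ 9 = 1
    rw [conj_pow, show q2 ^ 9 = 1 by decide +kernel]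
    simp
  have hpg : ∀ x : K, x ^ 9 = 1 → IsPGroup 3 (Subgroup.zpowers x) := by
    intro x hx
    rintro ⟨_, n, rfl⟩
    refine ⟨2, Subtype.ext ?_⟩
    change (x ^ n) ^ 9 = 1
    rw [← zpow_natCast, ← zpow_mul, mul_comm, zpow_mul, zpow_natCast, hx, one_zpow]
  obtain ⟨P, hP⟩ := (hpg u0 hu9).exists_le_sylow
  obtain ⟨k, hk⟩ := Cfsg.Agent.H99.exists_conj_le (Subgroup.zpowers v0) (P : Subgroup K) (hpg v0 hv9) P.not_dvd_index
  have hu : u0 ∈ (P : Subgroup K) := hP (Subgroup.mem_zpowers _)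
  have hv : k⁻¹ * v0 * k ∈ (P : Subgroup K) := hk _ (Subgroup.mem_zpowers _)
  let ι : K →* P9 := (alternatingGroup (Fin 9)).subtype.comp K.subtype
  have hP' : IsPGroup 3 ((P : Subgroup K).map ι) := P.isPGroup'.map ι
  obtain ⟨t, hts, htc⟩ := conj_of_three_group hP' (by
      rintro _ ⟨x, -, rfl⟩
      exact hno x.1 x.2) (u := ι u0) (v := ι (k⁻¹ * v0 * k)) ⟨_, hu, rfl⟩ ⟨_, hv, rfl⟩ (by
        change ((g1 : P9) * q1 * (g1 : P9)⁻¹) ^ 3 ≠ 1
        rw [conj_pow]
        intro h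
        rw [mul_inv_eq_one, mul_eq_left] at h
        exact absurd h (by decide +kernel)) (by
        rw [map_mul, map_mul, map_inv]
        change ((ι k)⁻¹ * ((g2 : P9) * q2 * (g2 : P9)⁻¹) * ι k) ^ 3 ≠ 1
        have : (ι k)⁻¹ * ((g2 : P9) * q2 * (g2 : P9)⁻¹) * ι k =
          ((ι k)⁻¹ * g2) * q2 * ((ι k)⁻¹ * g2)⁻¹ := by group
        rw [this, conj_pow]
        intro h
        rw [mul_inv_eq_one, mul_eq_left] at h
        exact absurd h (by decide +kernel))
  have hsk : sign (ι k) = 1 := mem_alternatingGroup.1 (k : A9).2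
  have hs1 : sign (g1 : P9) = 1 := mem_alternatingGroup.1 g1.2
  have hs2 : sign (g2 : P9) = 1 := mem_alternatingGroup.1 g2.2
  set a : P9 := (ι k)⁻¹ * g2 * tau with ha
  have hsa : sign a = -1 := by
    rw [ha, map_mul, map_mul, map_inv, hsk, hs2, sign_tau]
    rfl
  have hvv : ι (k⁻¹ * v0 * k) = a * q1 * a⁻¹ := by
    rw [map_mul, map_mul, map_inv]
    change (ι k)⁻¹ * ((g2 : P9) * (tau * q1 * tau⁻¹) * (g2 : P9)⁻¹) * ι k = _
    rw [ha]
    group
  have huu : ι u0 = g1 * q1 * (g1 : P9)⁻¹ := rfl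
  rw [hvv, huu] at htc
  rcases htc with h | h
  · have hc : (a⁻¹ * t * g1) * q1 = q1 * (a⁻¹ * t * g1) := by
      have h5 : (a⁻¹ * t * g1) * q1 = a⁻¹ * (t * (g1 * q1 * (g1 : P9)⁻¹) * t⁻¹) * t * g1 := by group
      rw [h5, h]
      group
    have h6 := sign_of_comm hc
    rw [map_mul, map_mul, map_inv, hts, hs1, hsa] at h6
    exact absurd h6 (by decide)
  · have hc : ((a * nu)⁻¹ * t * g1) * q1 = q1 * ((a * nu)⁻¹ * t * g1) := by
      have h5 : ((a * nu)⁻¹ * t * g1) * q1 = (a * nu)⁻¹ * (t * (g1 * q1 * (g1 : P9)⁻¹) * t⁻¹) * t * g1 := by group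
      have h7 : (a * q1 * a⁻¹)⁻¹ = a * (nu * q1 * nu⁻¹) * a⁻¹ := by
        rw [nu_conj]
        group
      rw [h5, h, h7]
      group
    have h6 := sign_of_comm hc
    rw [map_mul, map_mul, map_inv, map_mul, hts, hs1, hsa, sign_nu] at h6
    exact absurd h6 (by decide)

theorem p1_pow : (p1 ^ 6) ^ 5 = 1 := by decide +kernel
theorem p1_ne : p1 ^ 6 ≠ 1 := by decide +kernel
theorem p2_pow : (p2 ^ 6) ^ 5 = 1 := by decide +kernel
theorem p2_ne : p2 ^ 6 ≠ 1 := by decide +kernel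

theorem e1_val : ((e1 : A9) : P9) = p1 := rfl
theorem e2_val : ((e2 : A9) : P9) = p2 := rfl

theorem av_e1 {K : Subgroup A9} (hK : K ≠ ⊤) (ht : IsPretransitive K (Fin 9)) : Av e1 K :=
  av_of_trans (by rw [e1_val]; exact p1_pow) (by rw [e1_val]; exact p1_ne) hK ht

theorem av_e2 {K : Subgroup A9} (hK : K ≠ ⊤) (ht : IsPretransitive K (Fin 9)) : Av e2 K :=
  av_of_trans (by rw [e2_val]; exact p2_pow) (by rw [e2_val]; exact p2_ne) hK ht

theorem w1_val : ((w1 : A9) : P9) = q1 := rfl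

theorem trans_w1 {K : Subgroup A9} (h : ¬ Av w1 K) : IsPretransitive K (Fin 9) :=
  pretrans_of (w := w1) (by rw [w1_val]; exact trans1) h

theorem trans_w2 {K : Subgroup A9} (h : ¬ Av w2 K) : IsPretransitive K (Fin 9) :=
  pretrans_of (w := w2) (by rw [w2_val]; exact trans2) h

theorem main {H K : Subgroup A9} (hH : H ≠ ⊤) (hK : K ≠ ⊤) (hcov : ∀ x : A9, ¬ Av x H ∨ ¬ Av x K)
    (h1 : ¬ Av w1 K) : False := by
  have ht := trans_w1 h1
  have ha1 : Av e1 K := av_e1 hK ht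
  have ha2 : Av e2 K := av_e2 hK ht
  have hb1 := (hcov e1).resolve_right (fun h => h ha1)
  have hb2 := (hcov e2).resolve_right (fun h => h ha2)
  have hnt : ¬ IsPretransitive H (Fin 9) := fun h =>
    hb1 (av_e1 hH h)
  have hb3 := not_all hnt hb1 hb2
  have hc3 := (hcov e3).resolve_left (fun h => h hb3)
  have hw2 := av_second hK ht hc3 h1
  have hw2' := (hcov w2).resolve_right (fun h => h hw2)
  exact hnt (trans_w2 hw2')

/-- **the alternating group of degree 9 is not the union of the conjugates of two proper subgroups** -/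
theorem noTwo_nine : NoTwo ↥(alternatingGroup (Fin 9)) := by
  intro H K hH hK
  by_contra hcon
  have hcov : ∀ x : A9, ¬ Av x H ∨ ¬ Av x K := by
    intro x
    by_contra h
    push Not at h
    exact hcon ⟨x, h⟩
  rcases hcov w1 with h | h
  · exact main hK hH (fun x => (hcov x).symm) h
  · exact main hH hK hcov h

end Cfsg.Agent.H621.Cov
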